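import Mathlib
import Cfsg.Agent.H41.NseBase
import Cfsg.Agent.S0228
import Cfsg.Agent.S0494
import Cfsg.Agent.S0497

/-! Groups with the same-order counts of `A₄`, `A₅`, `A₆`. -/

set_option autoImplicit false

namespace Cfsg.Agent.H41.Nse

open Subgroup Cfsg.Agent.FGS Cfsg.Agent.FGS.SO Cfsg.Agent.FGS.BHM

variable {G : Type*} [Group G] [Finite G]

theorem frob {d : ℕ} (hd : d ∣ Nat.card G) (L : List ℕ) (hL : d.divisors = L.toFinset)
    (hn : L.Nodup) : d ∣ (L.map (s G)).sum := by
  have := dvd_sum hd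
  rwa [hL, List.sum_toFinset _ hn] at this

theorem tot (m : ℕ) {t : ℕ} (h : m.totient = t) : t ∣ s G m := h ▸ totient_dvd m

theorem sum_eq' (L : List ℕ) (hn : L.Nodup) (h : ∀ g : G, orderOf g ∈ L) :
    (L.map (s G)).sum = Nat.card G := by
  rw [← List.sum_toFinset _ hn]
  exact sum_eq _ fun g => List.mem_toFinset.2 (h g)

theorem sum_le' (L : List ℕ) (hn : L.Nodup) : (L.map (s G)).sum ≤ Nat.card G := by
  rw [← List.sum_toFinset _ hn]
  exact sum_le _

theorem iso4 (hS : ∀ k, s G k = 0 ∨ s G k ∈ ({1, 3, 8} : Set ℕ))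
    (h3 : ∃ k, 0 < k ∧ s G k = 3) (h8 : ∃ k, 0 < k ∧ s G k = 8) :
    Nonempty (G ≃* alternatingGroup (Fin 4)) := by
  obtain ⟨k3, hk3, e3⟩ := h3
  obtain ⟨k8, hk8, e8⟩ := h8
  have s2 : s G 2 = 3 := eq_two_of_odd hk3 e3 rfl (by norm_num)
  have s1 : s G 1 = 1 := s_one
  have hk : 2 < k8 := two_lt (G := G) hk8 (by omega) (by omega)
  have H : ∀ k, 2 < k → s G k = 0 ∨ s G k = 8 := by
    intro k hk
    have h1 := even_s (G := G) hk
    have h2 := hS k
    simp only [Set.mem_insert_iff, Set.mem_singleton_iff] at h2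
    omega
  have hpr : ∀ p : ℕ, p.Prime → p ∣ Nat.card G → p = 2 ∨ p = 3 ∨ p = 5 := by
    intro p hp h
    by_cases h2 : p = 2
    · exact Or.inl h2
    have h3 := (prime_dvd hp h).1
    rw [(H p (by have := hp.two_le; omega)).resolve_left (s_ne_zero_of_prime hp h)] at h3
    exact Or.inr (Or.inl ((Nat.prime_dvd_prime_iff_eq hp Nat.prime_three).1
      (hp.dvd_of_dvd_pow (n := 2) h3)))
  have n5 : ¬ 5 ^ (0 + 1) ∣ Nat.card G := fun h => by
    have h1 := (prime_dvd Nat.prime_five h).1
    have := H 5 (by norm_num)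
    omega
  have n8 : ¬ 2 ^ (2 + 1) ∣ Nat.card G := fun h => by
    have h1 := frob h [1, 2, 4, 8] (by decide) (by decide)
    have := H 4 (by norm_num)
    have := H 8 (by norm_num)
    simp only [List.map, List.sum_cons, List.sum_nil] at h1
    omega
  have s9 : s G 9 = 0 := by
    have := H 9 (by norm_num)
    have := tot (G := G) 9 (t := 6) (by decide)
    omega
  have n27 : ¬ 3 ^ (2 + 1) ∣ Nat.card G := fun h => by
    have h1 := pow_dvd Nat.prime_three s9 h
    have := H 3 (by norm_num)
    omega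
  have hd := dvd_three Nat.card_pos.ne' hpr 2 2 0 n8 n27 n5
  have ho : ∀ g : G, orderOf g ∈ [1, 2, 3, 4, 6, 12] := by
    intro g
    have h1 : ∀ k ∈ Nat.divisors 36, ¬ 9 ∣ k → k ∈ [1, 2, 3, 4, 6, 12] := by decide
    exact h1 _ (Nat.mem_divisors.2 ⟨(orderOf_dvd_natCard g).trans hd, by norm_num⟩)
      (not_dvd_orderOf s9 g)
  have hsum := sum_eq' _ (by decide) ho
  have hle := sum_le (G := G) {1, 2, k8}
  rw [Finset.sum_insert (by simp; omega), Finset.sum_pair (by omega)] at hle
  simp only [List.map, List.sum_cons, List.sum_nil] at hsum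
  have a3 := H 3 (by norm_num)
  have a4 := H 4 (by norm_num)
  have a6 := H 6 (by norm_num)
  have a12 := H 12 (by norm_num)
  have h1 : ∀ k ∈ Nat.divisors 36, 12 ≤ k → k % 8 = 4 → k = 12 ∨ k = 36 := by decide
  rcases h1 _ (Nat.mem_divisors.2 ⟨hd, by norm_num⟩) (by omega) (by omega) with h | h
  · have b3 := s_ne_zero_of_prime (G := G) Nat.prime_three (by rw [h]; norm_num)
    have s6 : s G 6 = 0 := by omega
    refine S0228.result h fun z hz hc => ?_
    have := pow_dvd_ix (k := 1) (q := 2) Nat.prime_three (by rw [h]; norm_num) s6 (y := z) (by rw [hz])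
      (by rw [hz]; norm_num)
    rw [ix_eq_one_iff.2 hc] at this
    omega
  · obtain ⟨n, -, h2, h3, -⟩ := cyclic_sylow (G := G) (a := 2) Nat.prime_two n8
      (by show s G 4 ≠ 0; omega)
    rw [show Nat.totient (2 ^ 2) = 2 by decide, show 2 ^ 2 = 4 from rfl] at h3
    omega

theorem simple60 (h : Nat.card G = 60) (s3 : s G 3 = 20) (s5 : s G 5 = 24)
    (s10 : s G (5 * 2) = 0) (s15 : s G (5 * 3) = 0) : IsSimpleGroup G := by
  haveI : Nontrivial G := Finite.one_lt_card_iff_nontrivial.1 (by omega)
  refine ⟨fun N hN => ?_⟩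
  have hi := N.card_mul_index
  have hd : Nat.card N ∈ Nat.divisors 60 := Nat.mem_divisors.2 ⟨h ▸ card_subgroup_dvd_card N, by norm_num⟩
  have s1 : s G 1 = 1 := s_one
  by_cases h5 : 5 ∣ Nat.card N
  · right
    have c5 : Nat.Coprime 5 N.index := (Nat.Prime.coprime_iff_not_dvd Nat.prime_five).2 fun h6 => by
      have := mul_dvd_mul h5 h6
      omega
    have h1 := sum_le_normal N {5} (by simpa using c5)
    rw [Finset.sum_singleton] at h1
    have h2 : ∀ k ∈ Nat.divisors 60, 24 ≤ k → k = 30 ∨ k = 60 := by decide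
    rcases h2 _ hd (by omega) with h3 | h3
    · have h4 : N.index = 2 := by rw [h3] at hi; omega
      have h6 := sum_le_normal N {3, 5} (by rw [h4]; decide)
      rw [Finset.sum_pair (by norm_num)] at h6
      omega
    · exact eq_top_of_card_eq _ (h3.trans h.symm)
  · left
    have h2 : ∀ k ∈ Nat.divisors 60, ¬ 5 ∣ k → k ∣ 72 ∧ k ≠ 36 := by decide
    have := normal_five (by rw [h]; norm_num) s10 s15 N (h2 _ hd h5).1
    exact card_eq_one.1 (this.resolve_right (h2 _ hd h5).2)

set_option maxHeartbeats 1600000 in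
theorem iso5 (hS : ∀ k, s G k = 0 ∨ s G k ∈ ({1, 15, 20, 24} : Set ℕ))
    (h15 : ∃ k, 0 < k ∧ s G k = 15) (h20 : ∃ k, 0 < k ∧ s G k = 20)
    (h24 : ∃ k, 0 < k ∧ s G k = 24) : Nonempty (G ≃* alternatingGroup (Fin 5)) := by
  obtain ⟨k1, hk1, e1⟩ := h15
  obtain ⟨k2, hk2, e2⟩ := h20
  obtain ⟨k3, hk3, e3⟩ := h24
  have s2 : s G 2 = 15 := eq_two_of_odd hk1 e1 rfl (by norm_num)
  have s1 : s G 1 = 1 := s_one
  have l2 : 2 < k2 := two_lt (G := G) hk2 (by omega) (by omega)
  have l3 : 2 < k3 := two_lt (G := G) hk3 (by omega) (by omega)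
  have l23 : k2 ≠ k3 := by rintro rfl; omega
  have H : ∀ k, 2 < k → s G k = 0 ∨ s G k = 20 ∨ s G k = 24 := by
    intro k hk
    have h1 := even_s (G := G) hk
    have h2 := hS k
    simp only [Set.mem_insert_iff, Set.mem_singleton_iff] at h2
    omega
  have hle := sum_le (G := G) {1, 2, k2, k3}
  rw [Finset.sum_insert (by simp; omega), Finset.sum_insert (by simp; omega),
    Finset.sum_pair l23] at hle
  replace hle : 60 ≤ Nat.card G := by omega
  replace e2 : ∃ k, s G k = 20 := ⟨k2, e2⟩
  clear l23 l2 l3 hk1 hk2 hk3 e1 e3 k1 k2 k3 hS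
  have hpr : ∀ p : ℕ, p.Prime → p ∣ Nat.card G → p = 2 ∨ p = 3 ∨ p = 5 := by
    intro p hp h
    by_cases h2 : p = 2
    · exact Or.inl h2
    obtain ⟨h3, h4⟩ := prime_dvd hp h
    have h5 : ∀ q ∈ Nat.divisors 21, q ≠ 1 → q - 1 ∣ 20 → q = 3 ∨ q = 21 := by decide
    rcases (H p (by have := hp.two_le; omega)).resolve_left (s_ne_zero_of_prime hp h) with e | e <;>
      rw [e] at h3 h4
    · rcases h5 p (Nat.mem_divisors.2 ⟨h3, by norm_num⟩) hp.ne_one h4 with rfl | rfl
      · simp
      · norm_num at hp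
    · exact Or.inr (Or.inr ((Nat.prime_dvd_prime_iff_eq hp Nat.prime_five).1
        (hp.dvd_of_dvd_pow (n := 2) h3)))
  have d2 : 2 ∣ Nat.card G := dvd_card_of_ne (by omega)
  have f3 : 3 ∣ Nat.card G → s G 3 = 20 := fun h => by
    have h1 := (prime_dvd Nat.prime_three h).1
    have := H 3 (by norm_num)
    omega
  have f5 : 5 ∣ Nat.card G → s G 5 = 24 := fun h => by
    have h1 := (prime_dvd Nat.prime_five h).1
    have := H 5 (by norm_num)
    omega
  have a4 := H 4 (by norm_num)
  have a8 := H 8 (by norm_num)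
  have a16 := H 16 (by norm_num)
  have s32 : s G 32 = 0 := by
    have := H 32 (by norm_num)
    have := tot (G := G) 32 (t := 16) (by decide)
    omega
  by_cases d5 : 5 ∣ Nat.card G
  · have s5 := f5 d5
    have a10 := H 10 (by norm_num)
    have b10 := frob (show 10 ∣ Nat.card G by omega) [1, 2, 5, 10] (by decide) (by decide)
    simp only [List.map, List.sum_cons, List.sum_nil] at b10
    by_cases d3 : 3 ∣ Nat.card G
    · have s3 := f3 d3
      have s15 : s G 15 = 0 := by
        have := H 15 (by norm_num)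
        have h1 := frob (show 15 ∣ Nat.card G by omega) [1, 3, 5, 15] (by decide) (by decide)
        simp only [List.map, List.sum_cons, List.sum_nil] at h1
        omega
      have n9 : ¬ 3 ^ (1 + 1) ∣ Nat.card G := fun h => by
        have := pow_dvd_s (q := 5) (m := 5) Nat.prime_three h s15 dvd_rfl (by norm_num)
        omega
      have n25 : ¬ 5 ^ (1 + 1) ∣ Nat.card G := fun h => by
        have := pow_dvd_s (q := 3) (m := 3) Nat.prime_five h s15 dvd_rfl (by norm_num)
        omega
      have s10 : s G 10 = 0 := by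
        have := pow_dvd_s (q := 5) (m := 10) (k := 1) Nat.prime_three d3 s15 (by norm_num)
          (by norm_num)
        omega
      have n16 : ¬ 2 ^ (3 + 1) ∣ Nat.card G := fun h => by
        have := pow_dvd_s (q := 5) (m := 5) Nat.prime_two h s10 dvd_rfl (by norm_num)
        omega
      have hd := dvd_three Nat.card_pos.ne' hpr 3 1 1 n16 n9 n25
      have s6 : s G 6 = 0 := by
        have := pow_dvd_s (q := 2) (m := 6) (k := 1) Nat.prime_five d5 s10 (by norm_num)
          (by norm_num)
        have := H 6 (by norm_num)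
        have h1 := frob (show 6 ∣ Nat.card G by omega) [1, 2, 3, 6] (by decide) (by decide)
        simp only [List.map, List.sum_cons, List.sum_nil] at h1
        omega
      have ho : ∀ g : G, orderOf g ∈ [1, 2, 3, 4, 5, 8] := by
        intro g
        have h1 : ∀ k ∈ Nat.divisors 120, ¬ 6 ∣ k → ¬ 10 ∣ k → ¬ 15 ∣ k →
          k ∈ [1, 2, 3, 4, 5, 8] := by decide +kernel
        exact h1 _ (Nat.mem_divisors.2 ⟨(orderOf_dvd_natCard g).trans hd, by norm_num⟩)
          (not_dvd_orderOf s6 g) (not_dvd_orderOf s10 g) (not_dvd_orderOf s15 g)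
      have hsum := sum_eq' _ (by decide) ho
      simp only [List.map, List.sum_cons, List.sum_nil] at hsum
      have h1 : ∀ k ∈ Nat.divisors 120, 60 ≤ k → k ≤ 108 → k = 60 := by decide +kernel
      have h60 := h1 _ (Nat.mem_divisors.2 ⟨hd, by norm_num⟩) (by omega) (by omega)
      haveI := simple60 h60 s3 s5 s10 s15
      exact S0494.result h60
    · exfalso
      have d25 : 5 ^ (1 + 1) ∣ Nat.card G := by
        by_contra h
        obtain ⟨n, h1, -, h3, -⟩ := cyclic_sylow (G := G) (a := 1) Nat.prime_five h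
          (by show s G 5 ≠ 0; omega)
        rw [show Nat.totient (5 ^ 1) = 4 by decide, pow_one, s5] at h3
        obtain rfl : n = 6 := by omega
        omega
      have s25 : s G 25 = 0 := by
        have := H 25 (by norm_num)
        have h1 := frob d25 [1, 5, 25] (by decide) (by decide)
        simp only [List.map, List.sum_cons, List.sum_nil] at h1
        omega
      have n125 : ¬ 5 ^ (2 + 1) ∣ Nat.card G := fun h => by
        have := pow_dvd Nat.prime_five s25 h
        omega
      have s40 : s G 40 = 0 := by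
        have := H 40 (by norm_num)
        have := tot (G := G) 40 (t := 16) (by decide)
        omega
      have ho : ∀ g : G, orderOf g ∈ [1, 2, 4, 5, 8, 10, 16, 20] := by
        intro g
        have h1 : ∀ k ∈ Nat.divisors 80, ¬ 40 ∣ k → k ∈ [1, 2, 4, 5, 8, 10, 16, 20] := by
          decide +kernel
        have h2 := orderOf_dvd_natCard g
        exact h1 _ (Nat.mem_divisors.2 ⟨dvd_three (orderOf_pos g).ne'
          (fun p hp h => hpr p hp (h.trans h2)) 4 0 1 (not_dvd_orderOf s32 g)
          (fun h => d3 (h.trans h2)) (not_dvd_orderOf s25 g), by norm_num⟩) (not_dvd_orderOf s40 g)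
      have hsum := sum_eq' _ (by decide) ho
      simp only [List.map, List.sum_cons, List.sum_nil] at hsum
      have a20 := H 20 (by norm_num)
      have n8 : ¬ 2 ^ (2 + 1) ∣ Nat.card G := by omega
      have hd := dvd_three Nat.card_pos.ne' hpr 2 0 2 n8 d3 n125
      have h1 : ∀ k ∈ Nat.divisors 100, 60 ≤ k → k = 100 := by decide +kernel
      have h100 := h1 _ (Nat.mem_divisors.2 ⟨hd, by norm_num⟩) (by omega)
      have s8 : s G 8 = 0 := by
        by_contra h
        exact n8 (dvd_card_of_ne h)
      have s16 := s_eq_zero_of_dvd (k := 16) s8 (by norm_num)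
      have := tot (G := G) 20 (t := 8) (by decide)
      omega
  · exfalso
    by_cases d3 : 3 ∣ Nat.card G
    · have s3 := f3 d3
      have d9 : 3 ^ (1 + 1) ∣ Nat.card G := by
        by_contra h
        obtain ⟨n, h1, -, h3, -⟩ := cyclic_sylow (G := G) (a := 1) Nat.prime_three h
          (by show s G 3 ≠ 0; omega)
        rw [show Nat.totient (3 ^ 1) = 2 by decide, pow_one, s3] at h3
        obtain rfl : n = 10 := by omega
        omega
      have s9 : s G 9 = 24 := by
        have := H 9 (by norm_num)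
        have h1 := frob d9 [1, 3, 9] (by decide) (by decide)
        simp only [List.map, List.sum_cons, List.sum_nil] at h1
        omega
      have n27 : ¬ 3 ^ (2 + 1) ∣ Nat.card G := fun h => by
        have := H 27 (by norm_num)
        have := tot (G := G) 27 (t := 18) (by decide)
        have h1 := frob h [1, 3, 9, 27] (by decide) (by decide)
        simp only [List.map, List.sum_cons, List.sum_nil] at h1
        omega
      obtain ⟨n, -, -, h3, h4⟩ := cyclic_sylow (G := G) (a := 2) Nat.prime_three n27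
        (by show s G 9 ≠ 0; omega)
      have h5 := h4 1 (by norm_num)
      rw [show Nat.totient (3 ^ 2) = 6 by decide, show 3 ^ 2 = 9 from rfl] at h3
      rw [show Nat.totient (3 ^ 1) = 2 by decide, pow_one] at h5
      omega
    · have ho : ∀ g : G, orderOf g ∈ [1, 2, 4, 8, 16] := by
        intro g
        have h1 : ∀ k ∈ Nat.divisors 16, k ∈ [1, 2, 4, 8, 16] := by decide
        have h2 := orderOf_dvd_natCard g
        exact h1 _ (Nat.mem_divisors.2 ⟨dvd_three (orderOf_pos g).ne'
          (fun p hp h => hpr p hp (h.trans h2)) 4 0 0 (not_dvd_orderOf s32 g)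
          (fun h => d3 (h.trans h2)) (fun h => d5 (h.trans h2)), by norm_num⟩)
      have hsum := sum_eq' _ (by decide) ho
      simp only [List.map, List.sum_cons, List.sum_nil] at hsum
      have n128 : ¬ 2 ^ (6 + 1) ∣ Nat.card G := by omega
      have hd := dvd_three Nat.card_pos.ne' hpr 6 0 0 n128 d3 d5
      have h1 : ∀ k ∈ Nat.divisors 64, 60 ≤ k → k = 64 := by decide +kernel
      have h64 := h1 _ (Nat.mem_divisors.2 ⟨hd, by norm_num⟩) (by omega)
      obtain ⟨k2, e2⟩ := e2
      obtain ⟨g, hg⟩ := exists_of_s_ne_zero (G := G) (m := k2) (by omega)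
      have h2 := ho g
      rw [hg] at h2
      simp only [List.mem_cons, List.not_mem_nil, or_false] at h2
      rcases h2 with rfl | rfl | rfl | rfl | rfl <;> omega

theorem simple360 (h : Nat.card G = 360) (s3 : s G 3 = 80) (s5 : s G 5 = 144)
    (s10 : s G (5 * 2) = 0) (s15 : s G (5 * 3) = 0) : IsSimpleGroup G := by
  haveI : Nontrivial G := Finite.one_lt_card_iff_nontrivial.1 (by omega)
  refine ⟨fun N hN => ?_⟩
  have hi := N.card_mul_index
  have hd : Nat.card N ∈ Nat.divisors 360 :=
    Nat.mem_divisors.2 ⟨h ▸ card_subgroup_dvd_card N, by norm_num⟩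
  have s1 : s G 1 = 1 := s_one
  by_cases h5 : 5 ∣ Nat.card N
  · right
    have c5 : Nat.Coprime 5 N.index := (Nat.Prime.coprime_iff_not_dvd Nat.prime_five).2 fun h6 => by
      have := mul_dvd_mul h5 h6
      omega
    have h1 := sum_le_normal N {5} (by simpa using c5)
    rw [Finset.sum_singleton] at h1
    have h2 : ∀ k ∈ Nat.divisors 360, 144 ≤ k → k = 180 ∨ k = 360 := by decide +kernel
    rcases h2 _ hd (by omega) with h3 | h3
    · have h4 : N.index = 2 := by rw [h3] at hi; omega
      have h6 := sum_le_normal N {3, 5} (by rw [h4]; decide)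
      rw [Finset.sum_pair (by norm_num)] at h6
      omega
    · exact eq_top_of_card_eq _ (h3.trans h.symm)
  · left
    have h2 : ∀ k ∈ Nat.divisors 360, ¬ 5 ∣ k → k ∣ 72 := by decide +kernel
    rcases normal_five (by rw [h]; norm_num) s10 s15 N (h2 _ hd h5) with h3 | h3
    · exact card_eq_one.1 h3
    · have h4 : N.index = 10 := by rw [h3] at hi; omega
      have h6 := sum_le_normal N {3} (by rw [h4]; decide)
      rw [Finset.sum_singleton] at h6
      omega

set_option maxHeartbeats 1600000 in
theorem iso6 (hS : ∀ k, s G k = 0 ∨ s G k ∈ ({1, 45, 80, 90, 144} : Set ℕ))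
    (h45 : ∃ k, 0 < k ∧ s G k = 45) (h80 : ∃ k, 0 < k ∧ s G k = 80)
    (h90 : ∃ k, 0 < k ∧ s G k = 90) (h144 : ∃ k, 0 < k ∧ s G k = 144) :
    Nonempty (G ≃* alternatingGroup (Fin 6)) := by
  obtain ⟨k1, hk1, e1⟩ := h45
  obtain ⟨k2, hk2, e2⟩ := h80
  obtain ⟨k3, hk3, e3⟩ := h90
  obtain ⟨k4, hk4, e4⟩ := h144
  have s2 : s G 2 = 45 := eq_two_of_odd hk1 e1 rfl (by norm_num)
  have s1 : s G 1 = 1 := s_one
  have l2 : 2 < k2 := two_lt (G := G) hk2 (by omega) (by omega)
  have l3 : 2 < k3 := two_lt (G := G) hk3 (by omega) (by omega)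
  have l4 : 2 < k4 := two_lt (G := G) hk4 (by omega) (by omega)
  have l23 : k2 ≠ k3 := by rintro rfl; omega
  have l24 : k2 ≠ k4 := by rintro rfl; omega
  have l34 : k3 ≠ k4 := by rintro rfl; omega
  have H : ∀ k, 2 < k → s G k = 0 ∨ s G k = 80 ∨ s G k = 90 ∨ s G k = 144 := by
    intro k hk
    have h1 := even_s (G := G) hk
    have h2 := hS k
    simp only [Set.mem_insert_iff, Set.mem_singleton_iff] at h2
    omega
  have hle := sum_le (G := G) {1, 2, k2, k3, k4}
  rw [Finset.sum_insert (by simp; omega), Finset.sum_insert (by simp; omega),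
    Finset.sum_insert (by simp; omega), Finset.sum_pair l34] at hle
  replace hle : 360 ≤ Nat.card G := by omega
  replace e3 : ∃ k, 2 < k ∧ s G k = 90 := ⟨k3, l3, e3⟩
  clear l23 l24 l34 l2 l3 l4 hk1 hk2 hk3 hk4 e1 e2 e4 k1 k2 k3 k4 hS
  have f3 : 3 ∣ Nat.card G → s G 3 = 80 := fun h => by
    have h1 := (prime_dvd Nat.prime_three h).1
    have := H 3 (by norm_num)
    omega
  have f5 : 5 ∣ Nat.card G → s G 5 = 144 := fun h => by
    have h1 := (prime_dvd Nat.prime_five h).1
    have := H 5 (by norm_num)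
    omega
  have n7 : ¬ 7 ∣ Nat.card G := fun h => by
    have p7 : Nat.Prime 7 := by norm_num
    have s7 : s G 7 = 90 := by
      have h1 := (prime_dvd p7 h).1
      have := H 7 (by norm_num)
      omega
    have s49 : s G 49 = 0 := by
      have := H 49 (by norm_num)
      have := tot (G := G) 49 (t := 42) (by decide +kernel)
      omega
    have n49 : ¬ 7 ^ (1 + 1) ∣ Nat.card G := fun h => by
      have := pow_dvd p7 s49 h
      omega
    obtain ⟨n, h1, -, h3, -⟩ := cyclic_sylow (G := G) (a := 1) p7 n49 (by show s G 7 ≠ 0; omega)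
    rw [show Nat.totient (7 ^ 1) = 6 by decide, pow_one, s7] at h3
    obtain rfl : n = 15 := by omega
    have s5 := f5 (by omega)
    have := H 35 (by norm_num)
    have := tot (G := G) 35 (t := 24) (by decide +kernel)
    have h4 := frob (show 35 ∣ Nat.card G by omega) [1, 5, 7, 35] (by decide) (by decide)
    simp only [List.map, List.sum_cons, List.sum_nil] at h4
    omega
  have hpr : ∀ p : ℕ, p.Prime → p ∣ Nat.card G → p = 2 ∨ p = 3 ∨ p = 5 := by
    intro p hp h
    by_cases h2 : p = 2
    · exact Or.inl h2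
    obtain ⟨h3, h4⟩ := prime_dvd hp h
    have h5 : ∀ q ∈ Nat.divisors 91, q ≠ 1 → q - 1 ∣ 90 → q = 7 ∨ q = 91 := by decide +kernel
    have h6 : ∀ q ∈ Nat.divisors 145, q ≠ 1 → q - 1 ∣ 144 → q = 5 ∨ q = 145 := by decide +kernel
    rcases (H p (by have := hp.two_le; omega)).resolve_left (s_ne_zero_of_prime hp h) with
      e | e | e <;> rw [e] at h3 h4
    · exact Or.inr (Or.inl ((Nat.prime_dvd_prime_iff_eq hp Nat.prime_three).1
        (hp.dvd_of_dvd_pow (n := 4) h3)))
    · rcases h5 p (Nat.mem_divisors.2 ⟨h3, by norm_num⟩) hp.ne_one h4 with rfl | rfl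
      · exact absurd h n7
      · norm_num at hp
    · rcases h6 p (Nat.mem_divisors.2 ⟨h3, by norm_num⟩) hp.ne_one h4 with rfl | rfl
      · simp
      · norm_num at hp
  have d2 : 2 ∣ Nat.card G := dvd_card_of_ne (by omega)
  have a4 := H 4 (by norm_num)
  have a8 := H 8 (by norm_num)
  have t8 := tot (G := G) 8 (t := 4) (by decide)
  have n16 : ¬ 2 ^ (3 + 1) ∣ Nat.card G := fun h => by
    have := H 16 (by norm_num)
    have := tot (G := G) 16 (t := 8) (by decide)
    have h1 := frob h [1, 2, 4, 8, 16] (by decide) (by decide)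
    simp only [List.map, List.sum_cons, List.sum_nil] at h1
    omega
  have f9 : 27 ∣ Nat.card G → s G 9 = 0 := fun h => by
    have s3 := f3 (by omega)
    have := H 9 (by norm_num)
    have := H 27 (by norm_num)
    have := tot (G := G) 9 (t := 6) (by decide)
    have := tot (G := G) 27 (t := 18) (by decide)
    have h1 := frob h [1, 3, 9, 27] (by decide) (by decide)
    simp only [List.map, List.sum_cons, List.sum_nil] at h1
    omega
  have n243 : ¬ 3 ^ (4 + 1) ∣ Nat.card G := fun h => by
    have := pow_dvd Nat.prime_three (f9 (by omega)) h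
    have s3 := f3 (by omega)
    omega
  by_cases d5 : 5 ∣ Nat.card G
  · have s5 := f5 d5
    have n25 : ¬ 5 ^ (1 + 1) ∣ Nat.card G := fun h => by
      have s25 : s G 25 = 80 := by
        have := H 25 (by norm_num)
        have h1 := frob h [1, 5, 25] (by decide) (by decide)
        simp only [List.map, List.sum_cons, List.sum_nil] at h1
        omega
      have n125 : ¬ 5 ^ (2 + 1) ∣ Nat.card G := fun h => by
        have := H 125 (by norm_num)
        have := tot (G := G) 125 (t := 100) (by decide +kernel)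
        have h1 := frob h [1, 5, 25, 125] (by decide +kernel) (by decide)
        simp only [List.map, List.sum_cons, List.sum_nil] at h1
        omega
      obtain ⟨n, -, h2, h3, -⟩ := cyclic_sylow (G := G) (a := 2) Nat.prime_five n125
        (by show s G 25 ≠ 0; omega)
      rw [show Nat.totient (5 ^ 2) = 20 by decide, show 5 ^ 2 = 25 from rfl] at h3
      omega
    obtain ⟨n, h1, -, h3, -⟩ := cyclic_sylow (G := G) (a := 1) Nat.prime_five n25
      (by show s G 5 ≠ 0; omega)
    rw [show Nat.totient (5 ^ 1) = 4 by decide, pow_one, s5] at h3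
    obtain rfl : n = 36 := by omega
    have s3 := f3 (by omega)
    have s15 : s G 15 = 0 := by
      have := H 15 (by norm_num)
      have := tot (G := G) 15 (t := 8) (by decide)
      have h1 := frob (show 15 ∣ Nat.card G by omega) [1, 3, 5, 15] (by decide) (by decide)
      simp only [List.map, List.sum_cons, List.sum_nil] at h1
      omega
    have n27 : ¬ 3 ^ (2 + 1) ∣ Nat.card G := fun h => by
      have := pow_dvd_s (q := 5) (m := 5) Nat.prime_three h s15 dvd_rfl (by norm_num)
      omega
    have hd := dvd_three Nat.card_pos.ne' hpr 3 2 1 n16 n27 n25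
    have h360 : Nat.card G = 360 := le_antisymm (Nat.le_of_dvd (by norm_num) hd) (by omega)
    have s10 : s G 10 = 0 := by
      by_contra h
      have t10 := tot (G := G) 10 (t := 4) (by decide)
      have a10 := H 10 (by norm_num)
      obtain ⟨k3, l3, e3⟩ := e3
      have m3 : k3 ≠ 3 := by rintro rfl; omega
      have m5 : k3 ≠ 5 := by rintro rfl; omega
      have m10 : k3 ≠ 10 := by rintro rfl; omega
      have h2 := sum_le' (G := G) [k3, 1, 2, 3, 5, 10] (by simp; omega)
      simp only [List.map, List.sum_cons, List.sum_nil] at h2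
      omega
    haveI := simple360 h360 s3 s5 s10 s15
    exact S0497.result h360
  · exfalso
    have hd := dvd_three Nat.card_pos.ne' hpr 3 4 0 n16 n243 d5
    have h1 : ∀ k ∈ Nat.divisors 648, 360 ≤ k → k = 648 := by decide +kernel
    have h648 := h1 _ (Nat.mem_divisors.2 ⟨hd, by norm_num⟩) (by omega)
    have s3 := f3 (by omega)
    have s9 := f9 (by omega)
    have s8 : s G 8 = 0 := by
      by_contra h
      obtain ⟨n, h1, h2, h3, -⟩ := cyclic_sylow (G := G) (a := 3) Nat.prime_two n16 h
      rw [show Nat.totient (2 ^ 3) = 4 by decide, show 2 ^ 3 = 8 from rfl] at h3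
      omega
    have ho : ∀ g : G, orderOf g ∈ [1, 2, 3, 4, 6, 12] := by
      intro g
      have h1 : ∀ k ∈ Nat.divisors 648, ¬ 8 ∣ k → ¬ 9 ∣ k → k ∈ [1, 2, 3, 4, 6, 12] := by
        decide +kernel
      exact h1 _ (Nat.mem_divisors.2 ⟨(orderOf_dvd_natCard g).trans hd, by norm_num⟩)
        (not_dvd_orderOf s8 g) (not_dvd_orderOf s9 g)
    have hsum := sum_eq' _ (by decide) ho
    simp only [List.map, List.sum_cons, List.sum_nil] at hsum
    have a6 := H 6 (by norm_num)
    have a12 := H 12 (by norm_num)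
    omega

end Cfsg.Agent.H41.Nse
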