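import Mathlib
import Cfsg.Agent.H41.NseBase

/-! The same-order counts of `A₄`, `A₅`, `A₆`. -/

set_option autoImplicit false
set_option maxRecDepth 100000

namespace Cfsg.Agent.H41.Nse

open Subgroup Cfsg.Agent.FGS Cfsg.Agent.FGS.SO

theorem cnt {G : Type*} [Group G] [Fintype G] [DecidableEq G] {d c : ℕ} (L : List ℕ)
    (hL : d.divisors = L.toFinset) (hn : L.Nodup) (hd : d ≠ 0)
    (h : Fintype.card {g : G // g ^ d = 1} = c) : (L.map (s G)).sum = c := by
  rw [← h, ← Nat.card_eq_fintype_card, card_pow_eq hd, hL, List.sum_toFinset _ hn]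

theorem card_alt (n : ℕ) (c : ℕ) (h : 2 * c = (n + 2).factorial) :
    Nat.card (alternatingGroup (Fin (n + 2))) = c := by
  have := two_mul_nat_card_alternatingGroup (α := Fin (n + 2))
  rw [Nat.card_perm, Nat.card_eq_fintype_card (α := Fin (n + 2)), Fintype.card_fin] at this
  omega

theorem nse4 : (fun m : ℕ => Nat.card {g : alternatingGroup (Fin 4) // orderOf g = m}) ''
    Set.range (orderOf : alternatingGroup (Fin 4) → ℕ) = {1, 3, 8} := by
  have s1 : s (alternatingGroup (Fin 4)) 1 = 1 := s_one
  have h2 := cnt (G := alternatingGroup (Fin 4)) (d := 2) (c := 4) [1, 2] (by decide) (by decide)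
    (by decide) (by decide +kernel)
  have h3 := cnt (G := alternatingGroup (Fin 4)) (d := 3) (c := 9) [1, 3] (by decide) (by decide)
    (by decide) (by decide +kernel)
  simp only [List.map, List.sum_cons, List.sum_nil] at h2 h3
  have s2 : s (alternatingGroup (Fin 4)) 2 = 3 := by omega
  have s3 : s (alternatingGroup (Fin 4)) 3 = 8 := by omega
  rw [image_eq {1, 2, 3} (by simp [s1, s2, s3])
    (by rw [card_alt 2 12 (by decide)]; simp [s1, s2, s3])]
  simp [Set.image_insert_eq, s1, s2, s3]

theorem nse5 : (fun m : ℕ => Nat.card {g : alternatingGroup (Fin 5) // orderOf g = m}) ''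
    Set.range (orderOf : alternatingGroup (Fin 5) → ℕ) = {1, 15, 20, 24} := by
  have s1 : s (alternatingGroup (Fin 5)) 1 = 1 := s_one
  have h2 := cnt (G := alternatingGroup (Fin 5)) (d := 2) (c := 16) [1, 2] (by decide) (by decide)
    (by decide) (by decide +kernel)
  have h3 := cnt (G := alternatingGroup (Fin 5)) (d := 3) (c := 21) [1, 3] (by decide) (by decide)
    (by decide) (by decide +kernel)
  have h5 := cnt (G := alternatingGroup (Fin 5)) (d := 5) (c := 25) [1, 5] (by decide) (by decide)
    (by decide) (by decide +kernel)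
  simp only [List.map, List.sum_cons, List.sum_nil] at h2 h3 h5
  have s2 : s (alternatingGroup (Fin 5)) 2 = 15 := by omega
  have s3 : s (alternatingGroup (Fin 5)) 3 = 20 := by omega
  have s5 : s (alternatingGroup (Fin 5)) 5 = 24 := by omega
  rw [image_eq {1, 2, 3, 5} (by simp [s1, s2, s3, s5])
    (by rw [card_alt 3 60 (by decide)]; simp [s1, s2, s3, s5])]
  simp [Set.image_insert_eq, s1, s2, s3, s5]

theorem c62 : Fintype.card {g : alternatingGroup (Fin 6) // g ^ 2 = 1} = 46 := by decide +kernel
theorem c63 : Fintype.card {g : alternatingGroup (Fin 6) // g ^ 3 = 1} = 81 := by decide +kernel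
theorem c64 : Fintype.card {g : alternatingGroup (Fin 6) // g ^ 4 = 1} = 136 := by decide +kernel
theorem c65 : Fintype.card {g : alternatingGroup (Fin 6) // g ^ 5 = 1} = 145 := by decide +kernel

theorem nse6 : (fun m : ℕ => Nat.card {g : alternatingGroup (Fin 6) // orderOf g = m}) ''
    Set.range (orderOf : alternatingGroup (Fin 6) → ℕ) = {1, 45, 80, 90, 144} := by
  have s1 : s (alternatingGroup (Fin 6)) 1 = 1 := s_one
  have h2 := cnt [1, 2] (by decide) (by decide) (by decide) c62
  have h3 := cnt [1, 3] (by decide) (by decide) (by decide) c63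
  have h4 := cnt [1, 2, 4] (by decide) (by decide) (by decide) c64
  have h5 := cnt [1, 5] (by decide) (by decide) (by decide) c65
  simp only [List.map, List.sum_cons, List.sum_nil] at h2 h3 h4 h5
  have s2 : s (alternatingGroup (Fin 6)) 2 = 45 := by omega
  have s3 : s (alternatingGroup (Fin 6)) 3 = 80 := by omega
  have s4 : s (alternatingGroup (Fin 6)) 4 = 90 := by omega
  have s5 : s (alternatingGroup (Fin 6)) 5 = 144 := by omega
  rw [image_eq {1, 2, 3, 4, 5} (by simp [s1, s2, s3, s4, s5])
    (by rw [card_alt 4 360 (by decide)]; simp [s1, s2, s3, s4, s5])]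
  simp [Set.image_insert_eq, s1, s2, s3, s4, s5]

end Cfsg.Agent.H41.Nse
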