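import Mathlib
import Cfsg.Agent.FGS.BHM

/-! Class sizes of `p`-singular elements: two non-central `p`-elements have a `p`-singular
element whose class size is coprime to neither of theirs. -/

set_option autoImplicit false

namespace Cfsg.Agent.H41.PSing

open Subgroup Cfsg.Agent.FGS Cfsg.Agent.FGS.BHM Cfsg.Agent.PLocal.Amb

variable {G : Type*} [Group G] [Finite G] {p : ℕ} [hp : Fact p.Prime]

theorem parts (p : ℕ) [hp : Fact p.Prime] (g : G) :
    ∃ a ∈ zpowers g, ∃ b ∈ zpowers g, a * b = g ∧ (∃ k, a ^ p ^ k = 1) ∧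
      (orderOf b).Coprime p := by
  obtain ⟨k, s, hs, e⟩ := Nat.exists_eq_pow_mul_and_not_dvd (orderOf_pos g).ne' p hp.out.ne_one
  have hc : Nat.Coprime (p ^ k) s := ((Nat.Prime.coprime_iff_not_dvd hp.out).2 hs).pow_left k
  obtain ⟨α, β, hαβ⟩ : ∃ α β : ℤ, α * (s : ℤ) + β * ((p ^ k : ℕ) : ℤ) = 1 := by
    obtain ⟨a, b, h⟩ := Nat.isCoprime_iff_coprime.2 hc
    exact ⟨b, a, by rw [add_comm]; exact h⟩
  have h0 : g ^ ((p ^ k : ℕ) * (s : ℤ)) = 1 := by
    rw [← Nat.cast_mul, ← e, zpow_natCast, pow_orderOf_eq_one]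
  refine ⟨g ^ (α * s), zpow_mem_zpowers _ _, g ^ (β * (p ^ k : ℕ)), zpow_mem_zpowers _ _, ?_,
    ⟨k, ?_⟩, ?_⟩
  · rw [← zpow_add, hαβ, zpow_one]
  · rw [← zpow_natCast, ← zpow_mul, show α * s * ((p ^ k : ℕ) : ℤ) = (p ^ k : ℕ) * (s : ℤ) * α by ring,
      zpow_mul, h0, one_zpow]
  · refine Nat.Coprime.coprime_dvd_left (orderOf_dvd_of_pow_eq_one (n := s) ?_)
      ((Nat.Prime.coprime_iff_not_dvd hp.out).2 hs).symm
    rw [← zpow_natCast, ← zpow_mul, show β * ((p ^ k : ℕ) : ℤ) * s = (p ^ k : ℕ) * (s : ℤ) * β by ring,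
      zpow_mul, h0, one_zpow]

omit [Finite G] in
theorem dvd_orderOf {x : G} (hx : ∃ k, x ^ p ^ k = 1) (h1 : x ≠ 1) : p ∣ orderOf x := by
  obtain ⟨k, hk⟩ := hx
  obtain ⟨j, -, hj⟩ := (Nat.dvd_prime_pow hp.out).1 (orderOf_dvd_of_pow_eq_one hk)
  rcases j with _ | j
  · exact absurd (orderOf_eq_one_iff.1 (by simpa using hj)) h1
  · rw [hj]; exact dvd_pow_self p j.succ_ne_zero

omit [Finite G] hp in
theorem pe_mul {x y : G} (hc : Commute x y) (hx : ∃ k, x ^ p ^ k = 1) (hy : ∃ k, y ^ p ^ k = 1) :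
    ∃ k, (x * y) ^ p ^ k = 1 := by
  obtain ⟨k, hk⟩ := hx
  obtain ⟨j, hj⟩ := hy
  refine ⟨k + j, ?_⟩
  rw [hc.mul_pow, pow_add, pow_mul, hk, one_pow, mul_comm (p ^ k), pow_mul, hj, one_pow, one_mul]

omit [Finite G] hp in
theorem pg_zpowers {x : G} (hx : ∃ k, x ^ p ^ k = 1) : IsPGroup p (zpowers x) := by
  obtain ⟨k, hk⟩ := hx
  rintro ⟨y, hy⟩
  obtain ⟨n, rfl⟩ := mem_zpowers_iff.1 hy
  refine ⟨k, Subtype.ext ?_⟩
  show (x ^ n) ^ p ^ k = 1
  rw [← zpow_natCast, ← zpow_mul, mul_comm, zpow_mul, zpow_natCast, hk, one_zpow]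

omit [Finite G] hp in
theorem pe_of_mem {P : Subgroup G} (hP : IsPGroup p P) {x : G} (hx : x ∈ P) :
    ∃ k, x ^ p ^ k = 1 := by
  obtain ⟨k, hk⟩ := hP ⟨x, hx⟩
  exact ⟨k, congrArg Subtype.val hk⟩

/-- `P * (P ∩ D)`-type products: the set of products `π * c` with `π ∈ A`, `c ∈ B`, where `B`
centralizes `A` -/
def prodSub (A B : Subgroup G) (h : ∀ a ∈ A, ∀ b ∈ B, Commute a b) : Subgroup G where
  carrier := {x | ∃ a ∈ A, ∃ b ∈ B, x = a * b}
  one_mem' := ⟨1, one_mem _, 1, one_mem _, (mul_one _).symm⟩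
  mul_mem' := by
    rintro _ _ ⟨a, ha, b, hb, rfl⟩ ⟨a', ha', b', hb', rfl⟩
    refine ⟨a * a', mul_mem ha ha', b * b', mul_mem hb hb', ?_⟩
    rw [mul_assoc, mul_assoc, ← mul_assoc b, ← (h a' ha' b hb).eq, mul_assoc]
  inv_mem' := by
    rintro _ ⟨a, ha, b, hb, rfl⟩
    exact ⟨a⁻¹, inv_mem ha, b⁻¹, inv_mem hb, by rw [mul_inv_rev, (h a ha b hb).inv_inv.eq]⟩

omit hp in
theorem le_of_conj_mem {H L : Subgroup G} (h : ∀ g ∈ L, ∃ l ∈ L, l * g * l⁻¹ ∈ H) : L ≤ H := by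
  have := eq_top_of_forall_exists_conj_mem (H.subgroupOf L) fun g => by
    obtain ⟨l, hl, h1⟩ := h g g.2
    exact ⟨⟨l, hl⟩, h1⟩
  exact subgroupOf_eq_top.1 this

omit hp in
theorem shift {u v : G} (h1 : (ix u).Coprime (ix v)) (hK : (ix (u * v)).Coprime (ix u))
    (g : G) {w : G} (hw : IsConj v w) : IsConj v (u⁻¹ * (g * u * g⁻¹) * w) := by
  have h3 : (ix u⁻¹).Coprime (ix (u * v)) := by rw [ix_inv]; exact hK.symm
  obtain ⟨c, rfl⟩ := isConj_iff.1 hw
  obtain ⟨d, hd⟩ := isConj_iff.1 (isConj_mul h1 g c)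
  have := isConj_mul h3 1 d
  rw [hd] at this
  simpa [mul_assoc] using this

omit hp in
theorem card_cm_dvd' {u v : G} (h1 : (ix u).Coprime (ix v)) (hK : (ix (u * v)).Coprime (ix u)) :
    Nat.card (cm u) ∣ ix v := by
  set Y : Set G := {w | IsConj v w} with hY
  have h4 : ∀ g : G, ∀ w ∈ Y, u⁻¹ * (g * u * g⁻¹) * w ∈ Y := fun g w hw => shift h1 hK g hw
  let K : Subgroup G :=
    { carrier := {n | ∀ u, u ∈ Y ↔ n * u ∈ Y}
      one_mem' := fun u => by rw [one_mul]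
      mul_mem' := fun {m n} hm hn u => by rw [mul_assoc, ← hm, ← hn]
      inv_mem' := fun {n} hn u => by rw [hn (n⁻¹ * u), mul_inv_cancel_left] }
  have h5 : cm u ≤ K := by
    rw [cm_le]
    intro g w
    refine ⟨h4 g w, fun hu => ?_⟩
    have h6 : (fun v => u⁻¹ * (g * u * g⁻¹) * v) '' Y = Y :=
      Set.eq_of_subset_of_ncard_le (by rintro _ ⟨v, hv, rfl⟩; exact h4 g v hv)
        (Set.ncard_image_of_injective _ (mul_right_injective _)).ge
    rw [← h6] at hu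
    obtain ⟨v, hv, e⟩ := hu
    exact mul_left_cancel e ▸ hv
  have h6 := card_dvd_of_mul_mem (cm u) Y fun n hn s hs => (h5 hn s).1 hs
  rwa [Nat.card_coe_set_eq, hY, ncard_setOf_isConj] at h6

theorem core {u v : G} (hu : ∃ k, u ^ p ^ k = 1) (hv : ∃ k, v ^ p ^ k = 1) (hm : ix u ≠ 1)
    (hc : Commute u v) (h1 : (ix u).Coprime (ix v))
    (H : ∀ x : G, p ∣ orderOf x → (ix x).Coprime (ix u) ∨ (ix x).Coprime (ix v))
    (hK : (ix (u * v)).Coprime (ix u)) : False := by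
  have hcard := card_cm_dvd' h1 hK
  have hNC : cm u ≤ centralizer {u} := by
    rw [← relIndex_eq_one]
    exact Nat.eq_one_of_dvd_coprimes h1 (relIndex_normal_dvd_index _ _)
      ((relIndex_dvd_card _ _).trans hcard)
  have hnp : ∀ g : G, ∃ k, (u⁻¹ * (g * u * g⁻¹)) ^ p ^ k = 1 := by
    intro g
    have h2 : Commute (u⁻¹ * (g * u * g⁻¹)) u := mem_c.1 (hNC (mem_cm u g))
    obtain ⟨k, hk⟩ := hu
    refine ⟨k, ?_⟩
    have h4 := h2.symm.mul_pow (p ^ k)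
    rwa [mul_inv_cancel_left, conj_pow, hk, one_mul, mul_one, mul_inv_cancel, eq_comm] at h4
  have hu1 : u ≠ 1 := by
    rintro rfl
    exact hm (ix_eq_one_iff.2 (one_mem _))
  have hpv : p ∣ ix v := by
    have : ∃ g : G, u⁻¹ * (g * u * g⁻¹) ≠ 1 := by
      by_contra h
      push Not at h
      refine hm (ix_eq_one_iff.2 (mem_center_iff.2 fun g => ?_))
      have := h g
      rw [inv_mul_eq_one, eq_mul_inv_iff_mul_eq] at this
      exact this.symm
    obtain ⟨g, hg⟩ := this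
    exact (dvd_orderOf (hnp g) hg).trans
      (((cm u).orderOf_dvd_natCard (mem_cm u g)).trans hcard)
  have hpu : ¬ p ∣ ix u := fun h => hp.out.one_lt.ne' (Nat.eq_one_of_dvd_coprimes h1 h hpv)
  have key : ∀ x : G, p ∣ orderOf x → p ∣ ix x → (ix x).Coprime (ix u) := fun x hx h =>
    (H x hx).resolve_right fun h2 => hp.out.one_lt.ne' (Nat.eq_one_of_dvd_coprimes h2 h hpv)
  obtain ⟨P, huP, hPL⟩ := exists_sylow_le_of_not_dvd_index hpu (pg_zpowers hu)
    (zpowers_le.2 (mem_c.2 rfl))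
  have hPC : ∀ a ∈ (P : Subgroup G), ∀ b ∈ centralizer ((P : Subgroup G) : Set G), Commute a b :=
    fun a ha b hb => hb a ha
  -- `C(u) = P C(P)`
  have hL : centralizer ({u} : Set G) ≤ prodSub _ _ hPC := by
    refine le_of_conj_mem fun g hg => ?_
    obtain ⟨a, ha, b, hb, hab, hap, hbp⟩ := parts p g
    have haL : a ∈ centralizer ({u} : Set G) := zpowers_le.2 hg ha
    have hbL : b ∈ centralizer ({u} : Set G) := zpowers_le.2 hg hb
    have hub : Commute u b := (mem_c.1 hbL).symm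
    have hcop : (orderOf u).Coprime (orderOf b) := by
      obtain ⟨k, hk⟩ := hu
      exact Nat.Coprime.coprime_dvd_left (orderOf_dvd_of_pow_eq_one hk) (hbp.symm.pow_left k)
    have hC := centralizer_mul_of_coprime hub hcop
    have h2 : p ∣ orderOf (u * b) := by
      rw [hub.orderOf_mul_eq_mul_orderOf_of_coprime hcop]
      exact (dvd_orderOf hu hu1).mul_right _
    have h3 : ¬ p ∣ ix (u * b) := fun h => hm (Nat.eq_one_of_dvd_coprimes (key _ h2 h)
      (index_dvd_of_le (hC ▸ inf_le_left)) dvd_rfl)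
    have hab' : Commute a b := by
      obtain ⟨i, rfl⟩ := mem_zpowers_iff.1 ha
      obtain ⟨j, rfl⟩ := mem_zpowers_iff.1 hb
      exact Commute.zpow_zpow_self g i j
    obtain ⟨Q, haQ, hQ⟩ := exists_sylow_le_of_not_dvd_index h3 (pg_zpowers hap)
      (zpowers_le.2 (hC ▸ ⟨haL, mem_c.2 hab'.eq⟩))
    rw [hC] at hQ
    obtain ⟨l, hl, hlQ⟩ := (isSyl_of_le P hPL).exists_cj_eq (isSyl_of_le Q (hQ.trans inf_le_left))
    refine ⟨l, hl, l * a * l⁻¹, ?_, l * b * l⁻¹, ?_, by rw [← hab]; group⟩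
    · rw [← hlQ]
      exact ⟨a, haQ (mem_zpowers a), rfl⟩
    · rw [← hlQ]
      rintro _ ⟨q, hq, rfl⟩
      have : q * b = b * q := mem_c.1 (hQ hq).2
      show l * q * l⁻¹ * (l * b * l⁻¹) = l * b * l⁻¹ * (l * q * l⁻¹)
      calc l * q * l⁻¹ * (l * b * l⁻¹) = l * (q * b) * l⁻¹ := by group
        _ = _ := by rw [this]; group
  have hLP : ∀ g ∈ centralizer ({u} : Set G), ∀ y ∈ (P : Subgroup G),
      ∃ π ∈ (P : Subgroup G), g * y * g⁻¹ = π * y * π⁻¹ := by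
    intro g hg y hy
    obtain ⟨π, hπ, c, hc', rfl⟩ := hL hg
    refine ⟨π, hπ, ?_⟩
    have := hPC y hy c hc'
    calc π * c * y * (π * c)⁻¹ = π * (c * y) * c⁻¹ * π⁻¹ := by group
      _ = _ := by rw [← this.eq]; group
  have hinP : ∀ g ∈ centralizer ({u} : Set G), (∃ k, g ^ p ^ k = 1) → g ∈ (P : Subgroup G) := by
    intro g hg hgp
    refine (isSyl_top P).le_of_normalizes (pg_zpowers hgp) le_top (zpowers_le.2 ?_) (mem_zpowers g)
    refine mem_normalizer_fintype fun y hy => ?_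
    obtain ⟨π, hπ, e⟩ := hLP g hg y hy
    rw [e]
    exact mul_mem (mul_mem hπ hy) (inv_mem hπ)
  have hNP : cm u ≤ P := cm_le.2 fun g => hinP _ (hNC (mem_cm u g)) (hnp g)
  have hNp : IsPGroup p (cm u) := P.isPGroup'.to_le hNP
  have hPall : ∀ g : G, ∀ y ∈ (P : Subgroup G), Commute y (g * u * g⁻¹) := by
    intro g y hy
    have hyu : Commute y u := mem_c.1 (hPL hy)
    by_cases hy1 : y = 1
    · rw [hy1]; exact Commute.one_left _
    by_cases h : p ∣ ix y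
    · obtain ⟨c, hc', d, hd, rfl⟩ := Grp.exists_mul_of_coprime_index
        (key y (dvd_orderOf (pe_of_mem P.isPGroup' hy) hy1) h) g
      have e : c * d * u * (c * d)⁻¹ = c * u * c⁻¹ := by
        calc c * d * u * (c * d)⁻¹ = c * (d * u) * d⁻¹ * c⁻¹ := by group
          _ = _ := by rw [mem_c.1 hd]; group
      have hyc : Commute y c := (mem_c.1 hc').symm
      rw [e]
      exact (hyc.mul_right hyu).mul_right hyc.inv_right
    · obtain ⟨Q, -, hQ⟩ := exists_sylow_le_of_not_dvd_index h (IsPGroup.of_bot (p := p)) bot_le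
      have h2 : cm u ≤ Q := (isSyl_top Q).le_of_le_normalizer hNp le_top
        (by rw [normalizer_eq_top]; exact le_top)
      have h3 : Commute y (u⁻¹ * (g * u * g⁻¹)) := (mem_c.1 (hQ (h2 (mem_cm u g)))).symm
      have := hyu.mul_right h3
      rwa [mul_inv_cancel_left] at this
  have hPn : ∀ g : G, ∀ y ∈ (P : Subgroup G), g * y * g⁻¹ ∈ (P : Subgroup G) := by
    intro g y hy
    refine hinP _ (mem_c.2 ?_) ?_
    · have := (hPall g⁻¹ y hy).eq
      calc g * y * g⁻¹ * u = g * (y * (g⁻¹ * u * g⁻¹⁻¹)) * g⁻¹ := by group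
        _ = _ := by rw [this]; group
    · obtain ⟨k, hk⟩ := pe_of_mem P.isPGroup' hy
      exact ⟨k, by rw [conj_pow, hk]; group⟩
  haveI hPN : (P : Subgroup G).Normal := ⟨fun y hy g => hPn g y hy⟩
  have hcls : ∀ y ∈ (P : Subgroup G), (ix y).Coprime (ix u) → ∀ g : G,
      ∃ π ∈ (P : Subgroup G), g * y * g⁻¹ = π * y * π⁻¹ := by
    intro y hy h g
    obtain ⟨l, hl, c, hc', rfl⟩ := Grp.exists_mul_of_coprime_index h.symm g
    obtain ⟨π, hπ, e⟩ := hLP l hl y hy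
    refine ⟨π, hπ, ?_⟩
    rw [← e]
    calc l * c * y * (l * c)⁻¹ = l * (c * y) * c⁻¹ * l⁻¹ := by group
      _ = _ := by rw [mem_c.1 hc']; group
  have hnc : ∀ y ∈ (P : Subgroup G), y ∉ centralizer ((P : Subgroup G) : Set G) →
      (ix y).Coprime (ix u) := by
    intro y hy h
    have hy1 : y ≠ 1 := by rintro rfl; exact h (one_mem _)
    refine key y (dvd_orderOf (pe_of_mem P.isPGroup' hy) hy1) ?_
    by_contra h2
    obtain ⟨Q, -, hQ⟩ := exists_sylow_le_of_not_dvd_index h2 (IsPGroup.of_bot (p := p)) bot_le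
    have h3 : (P : Subgroup G) ≤ Q := (isSyl_top Q).le_of_le_normalizer P.isPGroup' le_top
      (by rw [normalizer_eq_top]; exact le_top)
    exact h fun a ha => mem_c.1 (hQ (h3 ha))
  obtain ⟨t, ht, htm⟩ := Nat.exists_prime_and_dvd hm
  have htp : t ≠ p := by rintro rfl; exact hpu htm
  haveI := Fact.mk ht
  refine not_dvd_relIndex (H := centralizer ({u} : Set G)) (L := ⊤) ht (fun x _ hx => ?_)
    (by rwa [relIndex_top_right])
  have hD : ∀ a ∈ (P : Subgroup G) ⊓ centralizer {x},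
      ∀ b ∈ centralizer ((P : Subgroup G) : Set G), Commute a b := fun a ha b hb => hb a ha.1
  have hPD : (P : Subgroup G) ≤ prodSub _ _ hD := by
    refine le_of_conj_mem fun y hy => ?_
    by_cases h : y ∈ centralizer ((P : Subgroup G) : Set G)
    · exact ⟨1, one_mem _, 1, one_mem _, y, h, by group⟩
    have h2 := hnc y hy h
    have h3 : ¬ t ∣ ix y := fun h4 => ht.one_lt.ne' (Nat.eq_one_of_dvd_coprimes h2 h4 htm)
    obtain ⟨T, -, hT⟩ := exists_sylow_le_of_not_dvd_index h3 (IsPGroup.of_bot (p := t)) bot_le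
    obtain ⟨g, -, hg⟩ := (isSyl_top T).exists_le_cj (pg_zpowers hx) le_top
    obtain ⟨q, hq, hqx⟩ := hg (mem_zpowers x)
    obtain ⟨π, hπ, e⟩ := hcls y hy h2 g
    refine ⟨π, hπ, π * y * π⁻¹, ⟨hPn π y hy, mem_c.2 ?_⟩, 1, one_mem _, (mul_one _).symm⟩
    have hqx' : g * q * g⁻¹ = x := hqx
    have := mem_c.1 (hT hq)
    rw [← e, ← hqx']
    calc g * y * g⁻¹ * (g * q * g⁻¹) = g * (y * q) * g⁻¹ := by group
      _ = _ := by rw [← this]; group
  have hvP : v ∈ (P : Subgroup G) := hinP v (mem_c.2 hc.symm.eq) hv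
  obtain ⟨d, hd⟩ := isConj_iff.1 (shift h1 hK x (IsConj.refl v))
  obtain ⟨π, hπ, e⟩ := hcls v hvP h1.symm d
  set n := u⁻¹ * (x * u * x⁻¹) with hn
  have hnx : Commute n x := by
    obtain ⟨c, hc1, z, hz, hπ'⟩ := hPD hπ
    obtain ⟨c', hc2, z', hz', hv'⟩ := hPD hvP
    have e1 : z * v = v * z := (hz v hvP).symm
    have e2 : c * z' = z' * c := hz' c hc1.1
    have e3 : n = c * c' * c⁻¹ * c'⁻¹ := by
      have : n = π * v * π⁻¹ * v⁻¹ := by rw [← e, hd]; group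
      rw [this, hπ']
      calc c * z * v * (c * z)⁻¹ * v⁻¹ = c * (z * v) * z⁻¹ * c⁻¹ * v⁻¹ := by group
        _ = c * v * c⁻¹ * v⁻¹ := by rw [e1]; group
        _ = c * c' * (c⁻¹ * (c * z') * c⁻¹) * z'⁻¹ * c'⁻¹ := by rw [hv']; group
        _ = _ := by rw [e2]; group
    have k1 : Commute c x := mem_c.1 hc1.2
    have k2 : Commute c' x := mem_c.1 hc2.2
    rw [e3]
    exact ((k1.mul_left k2).mul_left k1.inv_left).mul_left k2.inv_left
  have hpow : ∀ k : ℕ, x ^ k * u * (x ^ k)⁻¹ = u * n ^ k := by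
    intro k
    induction k with
    | zero => simp
    | succ k ih =>
      have h2 : x * n ^ k = n ^ k * x := (hnx.pow_left k).symm.eq
      calc x ^ (k + 1) * u * (x ^ (k + 1))⁻¹ = x * (x ^ k * u * (x ^ k)⁻¹) * x⁻¹ := by group
        _ = (x * u * x⁻¹) * (x * n ^ k) * x⁻¹ := by rw [ih]; group
        _ = u * n * n ^ k := by rw [h2, hn]; group
        _ = _ := by rw [pow_succ', mul_assoc]
  obtain ⟨j, hj⟩ := hx
  have h5 : n ^ t ^ j = 1 := by
    have := hpow (t ^ j)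
    rw [hj] at this
    simpa using this
  obtain ⟨k, hk⟩ := hnp x
  have h6 : orderOf n = 1 := Nat.eq_one_of_dvd_coprimes
    (Nat.Coprime.pow j k ((Nat.coprime_primes ht hp.out).2 htp))
    (orderOf_dvd_of_pow_eq_one h5) (orderOf_dvd_of_pow_eq_one hk)
  rw [orderOf_eq_one_iff, hn, inv_mul_eq_one, eq_mul_inv_iff_mul_eq] at h6
  exact mem_c.2 h6.symm

theorem core' {u v : G} (hu : ∃ k, u ^ p ^ k = 1) (hv : ∃ k, v ^ p ^ k = 1) (hm : ix u ≠ 1)
    (hn : ix v ≠ 1) (h1 : (ix u).Coprime (ix v)) (hpu : ¬ p ∣ ix u)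
    (H : ∀ x : G, p ∣ orderOf x → (ix x).Coprime (ix u) ∨ (ix x).Coprime (ix v)) : False := by
  obtain ⟨Q, -, hQ⟩ := exists_sylow_le_of_not_dvd_index hpu (IsPGroup.of_bot (p := p)) bot_le
  obtain ⟨g, -, hg⟩ := (isSyl_top Q).exists_cj_le (pg_zpowers hv) le_top
  have hw : g * v * g⁻¹ ∈ (Q : Subgroup G) := hg ⟨v, mem_zpowers v, rfl⟩
  have e : ix (g * v * g⁻¹) = ix v := index_centralizer_conj v g
  set w := g * v * g⁻¹
  have hwp := pe_of_mem Q.isPGroup' hw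
  have hc : Commute u w := (mem_c.1 (hQ hw)).symm
  rw [← e] at hn h1 H
  have h2 : u * w ≠ 1 := by
    intro h
    rw [mul_eq_one_iff_inv_eq] at h
    rw [← h, ix_inv] at h1
    exact hm (Nat.eq_one_of_dvd_coprimes h1 dvd_rfl dvd_rfl)
  rcases H (u * w) (dvd_orderOf (pe_mul hc hu hwp) h2) with h | h
  · exact core hu hwp hm hc h1 H h
  · rw [hc.eq] at h
    exact core hwp hu hn hc.symm h1.symm (fun x hx => (H x hx).symm) h

theorem main {u v : G} (hu : ∃ k, u ^ p ^ k = 1) (hv : ∃ k, v ^ p ^ k = 1) (hm : ix u ≠ 1)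
    (hn : ix v ≠ 1) :
    ∃ x : G, p ∣ orderOf x ∧ ¬ (ix x).Coprime (ix u) ∧ ¬ (ix x).Coprime (ix v) := by
  by_contra h
  have H : ∀ x : G, p ∣ orderOf x → (ix x).Coprime (ix u) ∨ (ix x).Coprime (ix v) := by
    intro x hx
    by_contra h2
    exact h ⟨x, hx, fun h3 => h2 (Or.inl h3), fun h3 => h2 (Or.inr h3)⟩
  have hu1 : u ≠ 1 := by
    rintro rfl
    exact hm (ix_eq_one_iff.2 (one_mem _))
  have h1 : (ix u).Coprime (ix v) :=
    (H u (dvd_orderOf hu hu1)).resolve_left fun h2 => hm (Nat.eq_one_of_dvd_coprimes h2 dvd_rfl dvd_rfl)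
  by_cases hpu : p ∣ ix u
  · exact core' hv hu hn hm h1.symm
      (fun h2 => hp.out.one_lt.ne' (Nat.eq_one_of_dvd_coprimes h1 hpu h2))
      fun x hx => (H x hx).symm
  · exact core' hu hv hm hn h1 hpu H

/-- the `p`-part of a `p`-singular element -/
theorem exists_part' (hZ : ¬ p ∣ Nat.card (center G)) {a : G} (ha : p ∣ orderOf a) :
    ∃ u : G, (∃ k, u ^ p ^ k = 1) ∧ ix u ≠ 1 ∧ ix u ∣ ix a := by
  obtain ⟨u, hu, b, hb, hab, hup, hbp⟩ := parts p a
  refine ⟨u, hup, fun h => ?_, ix_dvd_of_mem_zpowers hu⟩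
  have hu1 : u ≠ 1 := by
    rintro rfl
    rw [one_mul] at hab
    subst hab
    exact hp.out.one_lt.ne' (Nat.eq_one_of_dvd_coprimes hbp ha dvd_rfl)
  exact hZ ((dvd_orderOf hup hu1).trans
    ((center G).orderOf_dvd_natCard (ix_eq_one_iff.1 h)))

theorem walk (hZ : ¬ p ∣ Nat.card (center G)) {a b : G} (ha : p ∣ orderOf a)
    (hb : p ∣ orderOf b) : ∃ t w : ℕ, t.Prime ∧ w.Prime ∧ t ∣ ix a ∧ w ∣ ix b ∧
      ∃ x : G, p ∣ orderOf x ∧ t ∣ ix x ∧ w ∣ ix x := by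
  obtain ⟨u, hu, hm, hua⟩ := exists_part' hZ ha
  obtain ⟨v, hv, hn, hvb⟩ := exists_part' hZ hb
  obtain ⟨x, hx, h1, h2⟩ := main hu hv hm hn
  obtain ⟨t, ht, ht1, ht2⟩ := Nat.Prime.not_coprime_iff_dvd.1 h1
  obtain ⟨w, hw, hw1, hw2⟩ := Nat.Prime.not_coprime_iff_dvd.1 h2
  exact ⟨t, w, ht, hw, ht2.trans hua, hw2.trans hvb, x, hx, ht1, hw1⟩

end Cfsg.Agent.H41.PSing
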